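import Cfsg.Agent.Lib.Helper6.A7.Defs
import Cfsg.Agent.Lib.Helper91.SSFive
import Cfsg.Agent.Lib.Helper91.SSExtra

/-!
# S0984, package (D3): a real irreducible character of degree six

The principal `5`-block of a simple group of order `2520` with `|N(P₅)| = 20`, `C(P₅) = P₅`.
-/

set_option autoImplicit false

namespace Cfsg.Agent.Lib.Helper96.A7

open Cfsg Cfsg.Agent.Lib.Helper17 Cfsg.Agent.Lib.Helper91.SS Cfsg.Agent.Lib.Helper6.A7

universe u

/-- candidates for the degrees in the principal `5`-block -/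
theorem list_2520 (f : ℕ) (hf : f ∣ 2520) (h1 : f ≠ 1) (hsq : f ^ 2 ≤ 2520)
    (hmod : f % 5 = 1 ∨ f % 5 = 4) : f ∈ [4, 6, 9, 14, 21, 24, 36] := by
  have hf' : f ∈ Nat.divisors 2520 := Nat.mem_divisors.mpr ⟨hf, by norm_num⟩
  have key : ∀ f ∈ Nat.divisors 2520, f ≠ 1 → f ^ 2 ≤ 2520 → (f % 5 = 1 ∨ f % 5 = 4) →
      f ∈ [4, 6, 9, 14, 21, 24, 36] := by decide +kernel
  exact key f hf' h1 hsq hmod

set_option synthInstance.maxSize 4096 in
set_option synthInstance.maxHeartbeats 2000000 in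
set_option maxHeartbeats 2000000 in
/-- Every solution of the degree equation contains the degree `4`, or the degree `9` exactly
once, or the degree `6` exactly once. -/
theorem arith_2520 (f : Fin 4 → ℕ) (a : Fin 4 → ℤ)
    (hf : ∀ i, f i ∈ [4, 6, 9, 14, 21, 24, 36]) (ha : ∀ i, a i = 1 ∨ a i = -1)
    (hmod : ∀ i, (f i : ℤ) % 5 = a i % 5) (hrel : 1 + ∑ i, a i * (f i : ℤ) = 0) :
    ∃ i, f i = 4 ∨ (f i = 9 ∧ ∀ j, j ≠ i → f j ≠ 9) ∨ (f i = 6 ∧ ∀ j, j ≠ i → f j ≠ 6) := by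
  have key : ∀ f₀ ∈ ([4, 6, 9, 14, 21, 24, 36] : List ℕ),
      ∀ f₁ ∈ ([4, 6, 9, 14, 21, 24, 36] : List ℕ),
      ∀ f₂ ∈ ([4, 6, 9, 14, 21, 24, 36] : List ℕ),
      ∀ f₃ ∈ ([4, 6, 9, 14, 21, 24, 36] : List ℕ),
      1 + (sgnFive f₀ * (f₀ : ℤ) + sgnFive f₁ * (f₁ : ℤ) + sgnFive f₂ * (f₂ : ℤ) +
        sgnFive f₃ * (f₃ : ℤ)) = 0 →
      (f₀ = 4 ∨ (f₀ = 9 ∧ f₁ ≠ 9 ∧ f₂ ≠ 9 ∧ f₃ ≠ 9) ∨ (f₀ = 6 ∧ f₁ ≠ 6 ∧ f₂ ≠ 6 ∧ f₃ ≠ 6)) ∨
      (f₁ = 4 ∨ (f₁ = 9 ∧ f₀ ≠ 9 ∧ f₂ ≠ 9 ∧ f₃ ≠ 9) ∨ (f₁ = 6 ∧ f₀ ≠ 6 ∧ f₂ ≠ 6 ∧ f₃ ≠ 6)) ∨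
      (f₂ = 4 ∨ (f₂ = 9 ∧ f₀ ≠ 9 ∧ f₁ ≠ 9 ∧ f₃ ≠ 9) ∨ (f₂ = 6 ∧ f₀ ≠ 6 ∧ f₁ ≠ 6 ∧ f₃ ≠ 6)) ∨
      (f₃ = 4 ∨ (f₃ = 9 ∧ f₀ ≠ 9 ∧ f₁ ≠ 9 ∧ f₂ ≠ 9) ∨ (f₃ = 6 ∧ f₀ ≠ 6 ∧ f₁ ≠ 6 ∧ f₂ ≠ 6)) := by
    unfold sgnFive
    decide +kernel
  have hsg : ∀ i, a i = sgnFive (f i) := by
    intro i
    have h1 := hf i
    have h2 := hmod i
    unfold sgnFive
    simp only [List.mem_cons, List.not_mem_nil, or_false] at h1
    rcases ha i with h | h <;> rw [h] at h2 ⊢ <;> split_ifs with h3 <;> omega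
  simp only [Fin.sum_univ_four] at hrel
  rw [hsg 0, hsg 1, hsg 2, hsg 3] at hrel
  rcases key (f 0) (hf 0) (f 1) (hf 1) (f 2) (hf 2) (f 3) (hf 3) hrel with h | h | h | h
  · refine ⟨0, ?_⟩
    rcases h with h | h | h
    · exact Or.inl h
    · refine Or.inr (Or.inl ⟨h.1, ?_⟩)
      intro j hj
      fin_cases j
      · exact absurd rfl hj
      · exact h.2.1
      · exact h.2.2.1
      · exact h.2.2.2
    · refine Or.inr (Or.inr ⟨h.1, ?_⟩)
      intro j hj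
      fin_cases j
      · exact absurd rfl hj
      · exact h.2.1
      · exact h.2.2.1
      · exact h.2.2.2
  · refine ⟨1, ?_⟩
    rcases h with h | h | h
    · exact Or.inl h
    · refine Or.inr (Or.inl ⟨h.1, ?_⟩)
      intro j hj
      fin_cases j
      · exact h.2.1
      · exact absurd rfl hj
      · exact h.2.2.1
      · exact h.2.2.2
    · refine Or.inr (Or.inr ⟨h.1, ?_⟩)
      intro j hj
      fin_cases j
      · exact h.2.1
      · exact absurd rfl hj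
      · exact h.2.2.1
      · exact h.2.2.2
  · refine ⟨2, ?_⟩
    rcases h with h | h | h
    · exact Or.inl h
    · refine Or.inr (Or.inl ⟨h.1, ?_⟩)
      intro j hj
      fin_cases j
      · exact h.2.1
      · exact h.2.2.1
      · exact absurd rfl hj
      · exact h.2.2.2
    · refine Or.inr (Or.inr ⟨h.1, ?_⟩)
      intro j hj
      fin_cases j
      · exact h.2.1
      · exact h.2.2.1
      · exact absurd rfl hj
      · exact h.2.2.2
  · refine ⟨3, ?_⟩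
    rcases h with h | h | h
    · exact Or.inl h
    · refine Or.inr (Or.inl ⟨h.1, ?_⟩)
      intro j hj
      fin_cases j
      · exact h.2.1
      · exact h.2.2.1
      · exact h.2.2.2
      · exact absurd rfl hj
    · refine Or.inr (Or.inr ⟨h.1, ?_⟩)
      intro j hj
      fin_cases j
      · exact h.2.1
      · exact h.2.2.1
      · exact h.2.2.2
      · exact absurd rfl hj

/-- **(D3)**: a real irreducible character of degree six. -/
theorem lemChar6 : LemChar6.{u} := by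
  intro G _ _ _ hD h4 h9
  have hG := hD.card
  have : Fact (Nat.Prime 5) := ⟨by norm_num⟩
  have hGn : ¬ (Nat.card G).Prime := by rw [hG]; norm_num
  obtain ⟨P⟩ : Nonempty (Sylow 5 G) := inferInstance
  have hP : Nat.card (P : Subgroup G) = 5 := by
    simpa using card_sylow_eq_of_card_eq 5 1 504 (by rw [hG]; norm_num) (by norm_num) P
  obtain ⟨-, -, hmul, -⟩ := relIndex_centralizer_sylow_prime hGn 5 P hP
  have hm : (Subgroup.centralizer ((P : Subgroup G) : Set G)).relIndex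
      (Subgroup.normalizer ((P : Subgroup G) : Set G)) = 4 := by
    rw [hD.c5 P, hP, hD.n5 P] at hmul
    rw [hD.c5 P]
    omega
  obtain ⟨χ, a, hinj, hχ, hrel, hreal⟩ := block_m4_five hGn P hP hm
  have hdegs : ∀ i, ((χ i : G → ℂ) 1 = (Cfsg.charDegree (χ i : G → ℂ) : ℂ)) ∧
      Cfsg.charDegree (χ i : G → ℂ) ∈ [4, 6, 9, 14, 21, 24, 36] ∧
      ((Cfsg.charDegree (χ i : G → ℂ) : ℕ) : ℤ) % 5 = a i % 5 := by
    intro i
    obtain ⟨ha, hx1, hxa⟩ := hχ i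
    have hirr := (χ i).2
    obtain ⟨hxd, hxpos, hxdvd⟩ := Cfsg.Agent.Lib.Helper79.irr_charDegree hirr
    have hmod := Cfsg.Agent.Lib.Helper90.BrauerDeg.degree_modEq hirr 5 (P : Subgroup G) hP (a i)
        (fun y hy hy1 => hxa y y (isPPart_self (by norm_num) _ hP y hy hy1) hy hy1)
    have hmod' : ((Cfsg.charDegree (χ i : G → ℂ) : ℕ) : ℤ) % 5 = a i % 5 := by
      have := hmod
      unfold Int.ModEq at this
      exact_mod_cast this
    refine ⟨hxd, ?_, hmod'⟩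
    rw [hG] at hxdvd
    apply list_2520 _ hxdvd
    · intro h
      apply hx1
      rw [hxd, h]
      norm_num
    · have := Cfsg.Agent.Lib.Helper80.charDegree_sq_le_card hirr
      rw [hG] at this
      exact this
    · rcases ha with h | h <;> rw [h] at hmod' <;> omega
  have hrel1 := hrel 1 (by rw [orderOf_one]; norm_num)
  have hrel1' : 1 + ∑ i, a i * ((Cfsg.charDegree (χ i : G → ℂ) : ℕ) : ℤ) = 0 := by
    have h : ((1 + ∑ i, a i * ((Cfsg.charDegree (χ i : G → ℂ) : ℕ) : ℤ) : ℤ) : ℂ) = 0 := by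
      push_cast
      rw [← hrel1]
      congr 1
      exact Finset.sum_congr rfl (fun i _ => by rw [(hdegs i).1])
    exact_mod_cast h
  obtain ⟨i, hi⟩ := arith_2520 (fun i => Cfsg.charDegree (χ i : G → ℂ)) a
    (fun i => (hdegs i).2.1) (fun i => (hχ i).1) (fun i => (hdegs i).2.2) hrel1'
  have huniq : ∀ d : ℕ, Cfsg.charDegree (χ i : G → ℂ) = d →
      (∀ j, j ≠ i → Cfsg.charDegree (χ j : G → ℂ) ≠ d) →
      ∀ g, (χ i : G → ℂ) g⁻¹ = (χ i : G → ℂ) g := by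
    intro d hd hne
    refine hreal i ?_
    intro i' hi'
    rw [(hdegs i').1, (hdegs i).1]
    intro heq
    have h1 : Cfsg.charDegree (χ i' : G → ℂ) = Cfsg.charDegree (χ i : G → ℂ) := by
      exact_mod_cast heq
    exact hne i' hi' (by rw [h1]; exact hd)
  rcases hi with h | h | h
  · -- degree four
    exfalso
    have hai : a i = -1 := by
      have h2 := (hdegs i).2.2
      rw [h] at h2
      rcases (hχ i).1 with h3 | h3 <;> rw [h3] at h2 <;> omega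
    refine h4 P (χ i) (by rw [(hdegs i).1, h]; norm_num) ?_
    intro y hy hy1
    rw [(hχ i).2.2 y y (isPPart_self (by norm_num) _ hP y hy hy1) hy hy1, hai]
    norm_num
  · -- degree nine, real
    exfalso
    exact h9 (χ i) (by rw [(hdegs i).1, h.1]; norm_num) (huniq 9 h.1 h.2)
  · exact ⟨χ i, by rw [(hdegs i).1, h.1]; norm_num, huniq 6 h.1 h.2⟩

end Cfsg.Agent.Lib.Helper96.A7
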